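import Cfsg.Agent.Lib.Components.GenFitting
import Cfsg.Prelude.Def_KGroupFacts
import Mathlib

/-!
# Extensions of a simple group `K` with `Out K ≅ S₄` by `S₃`

If `F*(G) ≅ K`, `K` is non-abelian simple, `Out K ≅ S₄` and `|G / F*(G)| = 6`, then `G` is determined up to isomorphism:
`G` embeds in `Aut K`, with image the preimage of a subgroup of order 6 of `S₄`, and those are all conjugate.
-/

set_option autoImplicit false
set_option linter.unusedSectionVars false
set_option linter.unusedVariables false
set_option linter.style.longLine false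

namespace Cfsg.Agent.Lib.Triality.Ext

open Cfsg

/-! ### Subgroups of order 6 of `S₄` -/

section s4

abbrev S4 := Equiv.Perm (Fin 4)

theorem s4_fix : ∀ x : S4, x ^ 3 = 1 → x ≠ 1 → ∃ i, x i = i ∧ ∀ j, x j = j → j = i := by decide

theorem s4_norm : ∀ x y : S4, x ^ 3 = 1 → x ≠ 1 → (y * x * y⁻¹ = x ∨ y * x * y⁻¹ = x ^ 2) →
    ∀ i, x i = i → y i = i := by decide

theorem s4_stab_card : ∀ i : Fin 4, (Finset.univ.filter (fun g : S4 => g i = i)).card = 6 := by decide

/-- The point stabilizers of `S₄`. -/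
def stab (i : Fin 4) : Subgroup S4 where
  carrier := {g | g i = i}
  mul_mem' := by
    intro a b ha hb
    simp only [Set.mem_setOf_eq, Equiv.Perm.coe_mul, Function.comp_apply] at *
    rw [hb, ha]
  one_mem' := rfl
  inv_mem' := by
    intro a ha
    simp only [Set.mem_setOf_eq] at *
    exact (Equiv.Perm.inv_eq_iff_eq).2 ha.symm

theorem card_stab (i : Fin 4) : Nat.card (stab i) = 6 := by
  classical
  rw [← s4_stab_card i, Nat.card_eq_fintype_card, ← Fintype.card_coe]
  refine Fintype.card_congr (Equiv.subtypeEquivRight ?_)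
  intro g
  simp only [Finset.mem_filter, Finset.mem_univ, true_and]
  exact Iff.rfl

theorem exists_stab (U : Subgroup S4) (hU : Nat.card U = 6) : ∃ i, U = stab i := by
  classical
  haveI : Fact (Nat.Prime 3) := ⟨Nat.prime_three⟩
  obtain ⟨⟨x, hxU⟩, hx⟩ := exists_prime_orderOf_dvd_card' (G := U) 3 (by rw [hU]; norm_num)
  have hx3 : x ^ 3 = 1 := by
    have := pow_orderOf_eq_one (⟨x, hxU⟩ : U)
    rw [hx] at this
    exact congrArg Subtype.val this
  have hx1 : x ≠ 1 := by
    rintro rfl
    have : (⟨1, hxU⟩ : U) = 1 := rfl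
    rw [this, orderOf_one] at hx
    norm_num at hx
  set H : Subgroup U := Subgroup.zpowers ⟨x, hxU⟩ with hH
  have hcH : Nat.card H = 3 := by rw [hH, Nat.card_zpowers, hx]
  have hidx : H.index = 2 := by
    have h := Subgroup.card_mul_index H
    rw [hcH, hU] at h
    omega
  have hn : H.Normal := Subgroup.normal_of_index_eq_two hidx
  obtain ⟨i, hi, -⟩ := s4_fix x hx3 hx1
  refine ⟨i, ?_⟩
  have hle : U ≤ stab i := by
    intro y hy
    have h1 : (⟨y, hy⟩ : U) * ⟨x, hxU⟩ * (⟨y, hy⟩ : U)⁻¹ ∈ H := hn.conj_mem _ (Subgroup.mem_zpowers _) _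
    obtain ⟨k, hk⟩ := Subgroup.mem_zpowers_iff.1 h1
    have hk' : x ^ k = y * x * y⁻¹ := congrArg Subtype.val hk |>.trans rfl
    have h3 : x ^ k = x ^ (k % 3) := by
      have h30 : (orderOf x : ℤ) = 3 := by
        have : orderOf x = 3 := by
          rw [← hx]
          exact (Subgroup.orderOf_mk x hxU).symm
        rw [this]; rfl
      rw [← zpow_mod_orderOf x k, h30]
    have hm : k % 3 = 0 ∨ k % 3 = 1 ∨ k % 3 = 2 := by omega
    have hcases : y * x * y⁻¹ = x ∨ y * x * y⁻¹ = x ^ 2 := by
      rcases hm with h | h | h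
      · exfalso
        rw [h3, h, zpow_zero] at hk'
        apply hx1
        have : x = y⁻¹ * (y * x * y⁻¹) * y := by group
        rw [this, ← hk']
        group
      · left
        rw [← hk', h3, h, zpow_one]
      · right
        rw [← hk', h3, h]
        rfl
    exact s4_norm x y hx3 hx1 hcases i hi
  refine Subgroup.eq_of_le_of_card_ge hle ?_
  rw [card_stab, hU]

theorem exists_conj (U V : Subgroup S4) (hU : Nat.card U = 6) (hV : Nat.card V = 6) :
    ∃ g : S4, V = U.map (MulAut.conj g).toMonoidHom := by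
  classical
  obtain ⟨i, rfl⟩ := exists_stab U hU
  obtain ⟨j, rfl⟩ := exists_stab V hV
  refine ⟨Equiv.swap i j, ?_⟩
  have h : (stab i).map (MulAut.conj (Equiv.swap i j)).toMonoidHom ≤ stab j := by
    rintro _ ⟨y, hy, rfl⟩
    have hy' : y i = i := hy
    show (Equiv.swap i j * y * (Equiv.swap i j)⁻¹) j = j
    simp [hy']
  symm
  refine Subgroup.eq_of_le_of_card_ge h ?_
  rw [card_stab, Nat.card_congr (Subgroup.equivMapOfInjective (stab i) (MulAut.conj (Equiv.swap i j)).toMonoidHom (MulEquiv.injective _)).symm.toEquiv, card_stab]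

end s4

section act

variable {K : Type*} [Group K] {G : Type*} [Group G] (F : Subgroup G) [hF : F.Normal] (e : F ≃* K)

/-- The conjugation action of `G` on the normal subgroup `F`, transported along `e : F ≃* K`. -/
noncomputable def act : G →* MulAut K :=
  (MulAut.congr e).toMonoidHom.comp (MulAut.conjNormal (H := F))

theorem act_symm (g : G) (k : K) : ((e.symm (act F e g k) : F) : G) = g * (e.symm k : F) * g⁻¹ := by
  simp [act, MulAut.congr]

theorem act_of_mem (f : F) : act F e (f : G) = MulAut.conj (e f) := by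
  ext k
  apply e.symm.injective
  apply Subtype.ext
  rw [act_symm]
  simp

theorem act_eq_one (g : G) (h : act F e g = 1) (y : G) (hy : y ∈ F) : g * y * g⁻¹ = y := by
  have h1 := act_symm F e g (e ⟨y, hy⟩)
  rw [h] at h1
  simpa using h1.symm

/-- If `F` has trivial centre and contains its centralizer, the action is faithful. -/
theorem act_inj (hC : Subgroup.centralizer (F : Set G) ≤ F) (hZ : Subgroup.center K = ⊥) :
    Function.Injective (act F e) := by
  rw [injective_iff_map_eq_one]
  intro g hg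
  have hg1 : g ∈ Subgroup.centralizer (F : Set G) := by
    rw [Subgroup.mem_centralizer_iff]
    intro y hy
    have h := act_eq_one F e g hg y hy
    calc y * g = (g * y * g⁻¹) * g := by rw [h]
      _ = g * y := by group
  have hgF : g ∈ F := hC hg1
  have hc : e ⟨g, hgF⟩ ∈ Subgroup.center K := by
    rw [Subgroup.mem_center_iff]
    intro k
    apply e.symm.injective
    apply Subtype.ext
    have h1 := (Subgroup.mem_centralizer_iff.1 hg1) (e.symm k : F) (e.symm k).2
    simpa using h1
  rw [hZ, Subgroup.mem_bot] at hc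
  have h2 : (⟨g, hgF⟩ : F) = 1 := e.injective (by rw [hc, map_one])
  exact congrArg Subtype.val h2

/-- The induced map to `Out K`. -/
noncomputable def psi : G →* Out K :=
  (QuotientGroup.mk' (Inn K)).comp (act F e)

theorem psi_apply (g : G) : psi F e g = (act F e g : MulAut K) := rfl

theorem act_mem_inn_iff (hC : Subgroup.centralizer (F : Set G) ≤ F) (hZ : Subgroup.center K = ⊥) (g : G) :
    act F e g ∈ Inn K ↔ g ∈ F := by
  constructor
  · rintro ⟨k, hk⟩
    have h1 : act F e ((e.symm k : F) : G) = act F e g := by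
      rw [act_of_mem, MulEquiv.apply_symm_apply]
      exact hk
    have h2 := act_inj F e hC hZ h1
    rw [← h2]
    exact (e.symm k).2
  · intro hg
    rw [show g = ((⟨g, hg⟩ : F) : G) from rfl, act_of_mem]
    exact ⟨_, rfl⟩

theorem ker_psi (hC : Subgroup.centralizer (F : Set G) ≤ F) (hZ : Subgroup.center K = ⊥) :
    (psi F e).ker = F := by
  ext g
  rw [MonoidHom.mem_ker, psi_apply, QuotientGroup.eq_one_iff, act_mem_inn_iff F e hC hZ]

theorem card_range_psi (hC : Subgroup.centralizer (F : Set G) ≤ F) (hZ : Subgroup.center K = ⊥) :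
    Nat.card (psi F e).range = Nat.card (G ⧸ F) := by
  rw [← Nat.card_congr (QuotientGroup.quotientKerEquivRange (psi F e)).toEquiv]
  exact Nat.card_congr (QuotientGroup.quotientMulEquivOfEq (ker_psi F e hC hZ)).toEquiv

end act

section main

variable {K : Type*} [Group K] {G : Type*} [Group G] {G' : Type*} [Group G']
  (F : Subgroup G) [hF : F.Normal] (F' : Subgroup G') [hF' : F'.Normal]

/-- **Extensions of `K` by `S₃`, when `Out K = S₄`, are unique.** -/
theorem nonempty_equiv (e : F ≃* K) (e' : F' ≃* K) (hC : Subgroup.centralizer (F : Set G) ≤ F) (hC' : Subgroup.centralizer (F' : Set G') ≤ F')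
    (hZ : Subgroup.center K = ⊥) (out : Out K ≃* S4) (h6 : Nat.card (G ⧸ F) = 6) (h6' : Nat.card (G' ⧸ F') = 6) :
    Nonempty (G ≃* G') := by
  classical
  set ψ := psi F e with hψ
  set ψ' := psi F' e' with hψ'
  have cU : Nat.card (ψ.range.map out.toMonoidHom) = 6 := by
    rw [Nat.card_congr (Subgroup.equivMapOfInjective ψ.range out.toMonoidHom out.injective).symm.toEquiv, hψ, card_range_psi F e hC hZ, h6]
  have cV : Nat.card (ψ'.range.map out.toMonoidHom) = 6 := by
    rw [Nat.card_congr (Subgroup.equivMapOfInjective ψ'.range out.toMonoidHom out.injective).symm.toEquiv, hψ', card_range_psi F' e' hC' hZ, h6']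
  obtain ⟨g, hg⟩ := exists_conj _ _ cU cV
  obtain ⟨o, ho⟩ := QuotientGroup.mk'_surjective (Inn K) (out.symm g)
  have ho' : (o : Out K) = out.symm g := ho
  -- the key relation
  have key : ∀ (x : G) (x' : G'), out (ψ' x') = g * out (ψ x) * g⁻¹ → ∃ y' : G', act F' e' y' = o * act F e x * o⁻¹ ∧ y' ∈ (⊤ : Subgroup G') := by
    intro x x' h
    have h1 : ψ' x' = ((o * act F e x * o⁻¹ : MulAut K) : Out K) := by
      apply out.injective
      rw [h]
      show _ = out ((o : Out K) * (act F e x : Out K) * ((o : Out K))⁻¹)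
      rw [ho', map_mul, map_mul, map_inv, MulEquiv.apply_symm_apply]
      rfl
    have h2 : (act F' e' x')⁻¹ * (o * act F e x * o⁻¹) ∈ Inn K := by
      exact QuotientGroup.eq.1 h1
    obtain ⟨k, hk⟩ := h2
    refine ⟨x' * (e'.symm k : F'), ?_, trivial⟩
    rw [map_mul, act_of_mem, MulEquiv.apply_symm_apply]
    have : (MulAut.conj k : MulAut K) = (act F' e' x')⁻¹ * (o * act F e x * o⁻¹) := hk
    rw [this]
    group
  have key' : ∀ (x : G) (x' : G'), out (ψ' x') = g * out (ψ x) * g⁻¹ → ∃ y : G, act F' e' x' = o * act F e y * o⁻¹ := by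
    intro x x' h
    have h1 : ψ' x' = ((o * act F e x * o⁻¹ : MulAut K) : Out K) := by
      apply out.injective
      rw [h]
      show _ = out ((o : Out K) * (act F e x : Out K) * ((o : Out K))⁻¹)
      rw [ho', map_mul, map_mul, map_inv, MulEquiv.apply_symm_apply]
      rfl
    have h2 : (act F e x)⁻¹ * (o⁻¹ * act F' e' x' * o) ∈ Inn K := by
      have h3 : ((o⁻¹ * act F' e' x' * o : MulAut K) : Out K) = (act F e x : MulAut K) := by
        have h4 : ((act F' e' x' : MulAut K) : Out K) = ψ' x' := rfl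
        show ((o : Out K))⁻¹ * ((act F' e' x' : MulAut K) : Out K) * (o : Out K) = _
        rw [h4, h1]
        show ((o : Out K))⁻¹ * ((o : Out K) * (act F e x : Out K) * ((o : Out K))⁻¹) * (o : Out K) = _
        group
      exact QuotientGroup.eq.1 h3.symm
    obtain ⟨k, hk⟩ := h2
    refine ⟨x * (e.symm k : F), ?_⟩
    rw [map_mul, act_of_mem, MulEquiv.apply_symm_apply]
    have : (MulAut.conj k : MulAut K) = (act F e x)⁻¹ * (o⁻¹ * act F' e' x' * o) := hk
    rw [this]
    group
  have hA : (act F e).range.map (MulAut.conj o).toMonoidHom = (act F' e').range := by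
    apply le_antisymm
    · rintro _ ⟨_, ⟨x, rfl⟩, rfl⟩
      have hm : g * out (ψ x) * g⁻¹ ∈ ψ'.range.map out.toMonoidHom := by
        rw [hg]
        exact ⟨out (ψ x), ⟨ψ x, ⟨x, rfl⟩, rfl⟩, rfl⟩
      obtain ⟨_, ⟨x', rfl⟩, hx'⟩ := hm
      obtain ⟨y', hy', -⟩ := key x x' hx'
      exact ⟨y', by rw [hy']; rfl⟩
    · rintro _ ⟨x', rfl⟩
      have hm : out (ψ' x') ∈ ψ'.range.map out.toMonoidHom := ⟨ψ' x', ⟨x', rfl⟩, rfl⟩
      rw [hg] at hm
      obtain ⟨_, ⟨_, ⟨x, rfl⟩, rfl⟩, hx⟩ := hm
      obtain ⟨y, hy⟩ := key' x x' hx.symm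
      exact ⟨act F e y, ⟨y, rfl⟩, by rw [hy]; rfl⟩
  have i1 : G ≃* (act F e).range := MonoidHom.ofInjective (act_inj F e hC hZ)
  have i2 : G' ≃* (act F' e').range := MonoidHom.ofInjective (act_inj F' e' hC' hZ)
  have i3 : (act F e).range ≃* (act F e).range.map (MulAut.conj o).toMonoidHom :=
    Subgroup.equivMapOfInjective _ _ (MulEquiv.injective _)
  exact ⟨i1.trans (i3.trans ((MulEquiv.subgroupCongr hA).trans i2.symm))⟩

/-- A finite simple group with `Out ≅ S₄` has trivial centre. -/
theorem center_eq_bot [Finite K] [hs : IsSimpleGroup K] (out : Out K ≃* S4) : Subgroup.center K = ⊥ := by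
  classical
  rcases hs.eq_bot_or_eq_top_of_normal (Subgroup.center K) inferInstance with h | h
  · exact h
  · exfalso
    have hcomm : ∀ a b : K, a * b = b * a := by
      intro a b
      have : a ∈ Subgroup.center K := by rw [h]; trivial
      exact ((Subgroup.mem_center_iff.1 this) b).symm
    letI cg : CommGroup K := { (inferInstance : Group K) with mul_comm := hcomm }
    haveI hc : IsCyclic K := IsSimpleGroup.isCyclic
    have hA : ∀ a b : MulAut K, a * b = b * a := by
      intro a b
      obtain ⟨m, hm⟩ := MonoidHom.map_cyclic a.toMonoidHom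
      obtain ⟨n, hn⟩ := MonoidHom.map_cyclic b.toMonoidHom
      ext x
      have h1 : ∀ y, a y = y ^ m := hm
      have h2 : ∀ y, b y = y ^ n := hn
      show a (b x) = b (a x)
      rw [h1, h2, h1, h2, ← zpow_mul, ← zpow_mul, mul_comm]
    have hS : ∀ a b : S4, a * b = b * a := by
      intro a b
      obtain ⟨a', ha⟩ := QuotientGroup.mk'_surjective (Inn K) (out.symm a)
      obtain ⟨b', hb⟩ := QuotientGroup.mk'_surjective (Inn K) (out.symm b)
      apply out.symm.injective
      rw [map_mul, map_mul, ← ha, ← hb, ← map_mul, ← map_mul, hA]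
    exact absurd hS (by decide)

theorem card_of_equiv {X : Type*} [Group X] (N : Subgroup X) [N.Normal] (q : X ⧸ N ≃* Equiv.Perm (Fin 3)) :
    Nat.card (X ⧸ N) = 6 := by
  rw [Nat.card_congr q.toEquiv, Nat.card_eq_fintype_card, Fintype.card_perm]
  simp [Nat.factorial]

end main

end Cfsg.Agent.Lib.Triality.Ext
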